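import Cfsg.Agent.H921.K4.M22
import Cfsg.Agent.H776.CY.Congr

/-!
# S4829, `p = 2`: characters determined by their degree, the row `M22` (helper139)

* `row2_of_uniq` : two irreducible characters of odd degree, each the only one of its degree, give `Row2`;
* `rowFor2_M22`.
-/

set_option autoImplicit false

namespace Cfsg.Agent.H139.R2

open Cfsg Cfsg.Agent.H770.CY Cfsg.Agent.H921.K4

universe u

/-- an irreducible character of odd degree, the only one of its degree, which is not trivial -/
theorem row2_of_uniq {S : Type u} [Group S] [Finite S] {χ : S → ℂ} (h : Uniq χ) (h1 : χ ≠ fun _ => 1) : Row2 S :=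
  fun _ _ => ⟨⟨χ, h.irr⟩, h1, Nat.not_even_iff_odd.1 fun h2 => h.odd h2.two_dvd, fun k hk _ g => h.rat k hk g,
    fun b _ x => h.inv b x⟩

/-- two of them -/
theorem row2_of_uniq_two {S : Type u} [Group S] [Finite S] {χ ψ : S → ℂ} (h : Uniq χ) (h' : Uniq ψ) (hne : χ ≠ ψ) :
    Row2 S := by
  by_cases h1 : χ = fun _ => 1
  · exact row2_of_uniq h' fun h2 => hne (h1.trans h2.symm)
  · exact row2_of_uniq h h1

theorem row2_M22 {S : Type u} [Group S] [Finite S] (h : Spor.IsoM22 S) : Row2 S := by
  obtain ⟨χ, h1, h2⟩ := M22.exists_uniq (M22.isM22 h)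
  exact row2_of_uniq_two (h1 0) (h1 1) fun h3 => absurd (h2 h3) (by decide)

theorem rowFor2_M22 : RowFor2 (fun X _ => Spor.IsoM22 X) := fun _ _ _ _ _ h => row2_M22 h

end Cfsg.Agent.H139.R2
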