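import Cfsg.Agent.H128.K547.M12
import Cfsg.Agent.H139.R2.M22

/-!
# S4829, `p = 2`: the row `M12` (helper139)

The character of degree 45 is the only one of its degree (the context of H417, as in H128/K547/M12).
-/

set_option autoImplicit false

namespace Cfsg.Agent.H139.R2.M12

open Cfsg Cfsg.Agent.Characters.Core Cfsg.Agent.H770.CY Cfsg.Agent.H921.K4
open Cfsg.Agent.H128.K547.M12 (card finite' simple)

universe u

theorem exists_uniq {S : Type u} [Group S] (h : Spor.IsoM12 S) : ∃ χ : S → ℂ, χ 1 = (45 : ℕ) ∧ Uniq χ := by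
  classical
  have hfin := finite' h
  have hs := simple h
  have hc := card h
  have := Fintype.ofFinite S
  have := finite_irr (G := S)
  have := Fintype.ofFinite (IrrCharacter S)
  obtain ⟨C, t, hdeg, ho, -, -, -⟩ := H417.DegMTwelve.exists_ctx hc
    (fun P => Cfsg.Agent.MTwelve.SylowEleven.centralizer_sylow11 hc P)
    (fun P => Cfsg.Agent.MTwelve.SylowEleven.card_normalizer_sylow11 hc P)
  have hcd : ∀ ψ : IrrCharacter S, charDegree (ψ : S → ℂ) = C.deg ψ := fun ψ => by
    rw [hdeg]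
    exact Cfsg.Agent.MTwelve.ElevenMain.charDegree_eq_deg ψ
  have hone : ∀ ψ : IrrCharacter S, (ψ : S → ℂ) 1 = (C.deg ψ : ℕ) := fun ψ => by
    rw [hdeg]
    exact Cfsg.Agent.MTwelve.BlockData.apply_one ψ
  refine ⟨C.c45, by rw [hone, C.d45], C.c45.2, ?_, ?_⟩
  · rw [hcd, C.d45]
    norm_num
  · intro ψ hψ hd
    have hd' : ((C.deg ⟨ψ, hψ⟩ : ℕ) : ℂ) = ((45 : ℕ) : ℂ) := by
      rw [← hone, ← C.d45, ← hone]
      exact hd
    have h1 : C.deg ⟨ψ, hψ⟩ = 45 := Nat.cast_injective hd'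
    have h2 : (⟨ψ, hψ⟩ : IrrCharacter S) = C.c45 := by
      rcases C.rest ⟨ψ, hψ⟩ with h3 | h3 | h3 | h3 | h3 | h3 | h3 | h3
      · rw [h3, C.deg_o] at h1; omega
      · exact h3
      · rw [h3, C.d54] at h1; omega
      · rw [h3, C.d120] at h1; omega
      · rw [h3, C.d144] at h1; omega
      · rw [h3, C.dth] at h1; omega
      · rw [h3, C.dth'] at h1; omega
      · rw [h1] at h3; omega
    exact congrArg Subtype.val h2

theorem row2_M12 {S : Type u} [Group S] (h : Spor.IsoM12 S) : Row2 S := by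
  have := finite' h
  obtain ⟨χ, h1, h2⟩ := exists_uniq h
  refine row2_of_uniq h2 fun h3 => ?_
  rw [h3] at h1
  norm_num at h1

theorem rowFor2_M12 : RowFor2 (fun X _ => Spor.IsoM12 X) := fun _ _ _ _ _ h => row2_M12 h

end Cfsg.Agent.H139.R2.M12
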